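import Cfsg.Agent.Chev.Weyl
import Cfsg.Agent.Chev.Certs
import Cfsg.Agent.Chev.CoxCheck

/-!
Weyl groups of the tabulated types are generated by the product of the simple reflections and one
or two reflections.
-/

set_option autoImplicit false

universe u

namespace Cfsg.Agent.KnownA.CoxeterGenerators

open Cfsg.Lie Cfsg.Agent.Chev

/-- Tokens: `a < rank` is a simple reflection, `rank` the Coxeter element, anything else its inverse. -/
def expand (D : ChevalleyDatum) (w : List ℕ) : List ℕ :=
  w.flatMap fun a => if a < D.rank then [a] else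
    if a = D.rank then List.range D.rank else (List.range D.rank).reverse

/-- The words `W` use only the letters of `T` and express the simple reflections; the letters of
`T` act differently. -/
def check (D : ChevalleyDatum) (T : List ℕ) (W : List (List ℕ)) : Bool :=
  (T.all fun a => decide (a < D.rank)) &&
  (List.range D.rank).all (fun j =>
    (W.getD j []).all (fun a => T.contains a || decide (D.rank ≤ a)) &&
      (List.range D.rank).all fun k =>
        act D (expand D (W.getD j [])) (D.simple k) == D.reflectRoot j (D.simple k)) &&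
  T.all fun a => T.all fun b => a == b ||
    (List.range D.rank).any fun k => D.reflectRoot a (D.simple k) != D.reflectRoot b (D.simple k)

/-- The conclusion. -/
def Good (D : ChevalleyDatum) {M : CoxeterMatrix (Fin D.rank)} (T : List ℕ) : Prop :=
  ∃ S : Finset M.Group, S.card = T.dedup.length ∧
    (∀ t ∈ S, ∃ (g : M.Group) (i : Fin D.rank), t = g * M.simple i * g⁻¹) ∧
    Subgroup.closure (({((List.finRange D.rank).map M.simple).prod} : Set M.Group) ∪ ↑S) = ⊤

theorem good_of_check {D : ChevalleyDatum} (C : Cert.{0} D) {M : CoxeterMatrix (Fin D.rank)}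
    (hM : CoxOK D M) (T : List ℕ) (W : List (List ℕ)) (hc : check D T W = true) :
    Good D (M := M) T := by
  classical
  simp only [check, Bool.and_eq_true, Bool.or_eq_true, List.all_eq_true, List.mem_range,
    decide_eq_true_eq, beq_iff_eq, List.contains_iff_mem, List.any_eq_true, bne_iff_ne, ne_eq] at hc
  obtain ⟨⟨hT, hW⟩, hinj⟩ := hc
  let s : ℕ → M.Group := fun a => if h : a < D.rank then M.simple ⟨a, h⟩ else 1
  have hs : ∀ (a : ℕ) (h : a < D.rank), s a = M.simple ⟨a, h⟩ := fun a h => dif_pos h
  have hnum : ∀ L : List ℕ, (∀ a ∈ L, a < D.rank) → ∀ r < D.nroots,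
      C.rootImage hM (L.map s).prod r = act D L r := by
    intro L hL r hr
    have e : (L.map s).prod = M.toCoxeterSystem.wordProd (L.attach.map fun a => (⟨a.1, hL a.1 a.2⟩ : Fin D.rank)) := by
      rw [CoxeterSystem.wordProd, List.map_map]
      congr 1
      conv_lhs => rw [← List.attach_map_subtype_val L, List.map_map]
      refine List.map_congr_left fun a _ => ?_
      exact hs a.1 (hL a.1 a.2)
    rw [e, C.rootImage_wordProd hM _ hr, List.map_map]
    congr 1
    exact List.attach_map_subtype_val L
  have hext : ∀ L L' : List ℕ, (∀ a ∈ L, a < D.rank) → (∀ a ∈ L', a < D.rank) →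
      (∀ k < D.rank, act D L (D.simple k) = act D L' (D.simple k)) →
      (L.map s).prod = (L'.map s).prod := by
    intro L L' hL hL' h
    apply C.rootRep_injective hM
    ext r
    have h1 := hnum L hL r r.isLt
    have h2 := hnum L' hL' r r.isLt
    simp only [Cert.rootImage, dif_pos r.isLt, Fin.eta] at h1 h2
    rw [h1, h2]
    exact C.act_ext hL hL' h r.isLt
  refine ⟨(T.map s).toFinset, ?_, ?_, ?_⟩
  · rw [show (T.map s).toFinset = T.toFinset.image s by ext x; simp, Finset.card_image_of_injOn, List.card_toFinset]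
    intro a ha b hb e
    rw [Finset.mem_coe, List.mem_toFinset] at ha hb
    by_contra hne
    obtain ⟨k, hk, hd⟩ := (hinj a ha b hb).resolve_left hne
    have h1 := hnum [a] (by simpa using hT a ha) (D.simple k) (C.simple_lt k hk)
    have h2 := hnum [b] (by simpa using hT b hb) (D.simple k) (C.simple_lt k hk)
    simp only [List.map_cons, List.map_nil, List.prod_cons, List.prod_nil, mul_one] at h1 h2
    rw [e, h2] at h1
    simp only [act_cons, act_nil] at h1
    exact hd h1.symm
  · intro t ht
    rw [List.mem_toFinset, List.mem_map] at ht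
    obtain ⟨a, ha, rfl⟩ := ht
    exact ⟨1, ⟨a, hT a ha⟩, by rw [hs a (hT a ha), one_mul, inv_one, mul_one]⟩
  · set K := Subgroup.closure (({((List.finRange D.rank).map M.simple).prod} : Set M.Group) ∪ ↑(T.map s).toFinset)
    have hcox : ((List.range D.rank).map s).prod ∈ K := by
      refine Subgroup.subset_closure (Or.inl ?_)
      rw [Set.mem_singleton_iff, ← List.map_coe_finRange_eq_range, List.map_map]
      congr 1
      exact List.map_congr_left fun a _ => hs a.1 a.2
    have hsq : ∀ a, s a * s a = 1 := by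
      intro a
      by_cases h : a < D.rank
      · rw [hs a h]; exact M.toCoxeterSystem.simple_mul_simple_self _
      · simp [s, h]
    have hcox' : (((List.range D.rank).reverse).map s).prod ∈ K := by
      have e : ∀ L : List ℕ, ((L.reverse).map s).prod = ((L.map s).prod)⁻¹ := by
        intro L
        induction L with
        | nil => simp
        | cons a L ih =>
          rw [List.reverse_cons, List.map_append, List.prod_append, ih]
          simp only [List.map_cons, List.map_nil, List.prod_cons, List.prod_nil, mul_one, mul_inv_rev]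
          rw [← eq_inv_of_mul_eq_one_left (hsq a)]
      rw [e]; exact inv_mem hcox
    have hall : ∀ (i : Fin D.rank), M.simple i ∈ K := by
      intro i
      obtain ⟨hw, hact⟩ := hW i i.isLt
      have hin : ∀ a ∈ expand D (W.getD i []), a < D.rank := by
        intro a ha
        simp only [expand, List.mem_flatMap] at ha
        obtain ⟨b, -, hab⟩ := ha
        split_ifs at hab <;> simp at hab <;> omega
      have heq : ((expand D (W.getD i [])).map s).prod = M.simple i := by
        rw [hext _ [(i : ℕ)] hin (by simp) (fun k hk => by rw [hact k hk, act_cons, act_nil])]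
        simp [hs i.1 i.2]
      rw [← heq, expand, List.flatMap_def, List.map_flatten, List.map_map, List.prod_flatten, List.map_map]
      refine list_prod_mem fun x hx => ?_
      obtain ⟨a, ha, rfl⟩ := List.mem_map.1 hx
      show ((if a < D.rank then [a] else
        if a = D.rank then List.range D.rank else (List.range D.rank).reverse).map s).prod ∈ K
      split_ifs with h1 h2
      · rcases hw a ha with h | h
        · simp only [List.map_cons, List.map_nil, List.prod_cons, List.prod_nil, mul_one]
          exact Subgroup.subset_closure (Or.inr (by simpa using ⟨a, h, rfl⟩))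
        · omega
      · exact hcox
      · exact hcox'
    rw [eq_top_iff, ← M.toCoxeterSystem.subgroup_closure_range_simple, Subgroup.closure_le]
    rintro _ ⟨i, rfl⟩
    exact hall i

theorem genB2 : Good chevB2 (M := (CoxeterMatrix.B 2)) [0] :=
  good_of_check certB2 coxB2 [0] [[0], [0, 2]] (by decide +kernel)

theorem genG2 : Good chevG2 (M := CoxeterMatrix.G₂) [0] :=
  good_of_check certG2 coxG2 [0] [[0], [0, 2]] (by decide +kernel)

theorem genD4 : Good chevD4 (M := Cfsg.Lie.coxeterD4) [1, 2] :=
  good_of_check certD4 coxD4 [1, 2] [[5, 1, 4], [1], [2], [4, 1, 2, 1, 5]] (by decide +kernel)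

theorem genF4 : Good chevF4 (M := CoxeterMatrix.F₄) [0, 2] :=
  good_of_check certF4 coxF4 [0, 2] [[0], [4, 0, 5], [2], [4, 2, 5]] (by decide +kernel)

theorem genE6 : Good chevE6 (M := CoxeterMatrix.E₆) [3] :=
  good_of_check certE6 coxE6 [3] [[7, 7, 7, 7, 7, 3, 6, 6, 6, 6, 6], [3, 7, 7, 7, 3, 6, 6, 6, 3], [7, 7, 7, 7, 3, 6, 6, 6, 6], [3], [6, 3, 7], [6, 6, 3, 7, 7]] (by decide +kernel)

theorem genE7 : Good chevE7 (M := CoxeterMatrix.E₇) [1] :=
  good_of_check certE7 coxE7 [1] [[7, 7, 7, 1, 7, 7, 1, 8, 8, 1, 8, 8, 8], [1], [8, 8, 8, 1, 8, 8, 1, 7, 7, 1, 7, 7, 7], [1, 8, 8, 1, 8, 8, 1, 7, 7, 1, 7, 7, 1], [7, 1, 8, 8, 1, 8, 8, 1, 7, 7, 1, 7, 7, 1, 8], [8, 8, 1, 7, 7, 1, 7, 7, 1, 8, 8, 1, 8, 8, 1, 7, 7], [8, 1, 7, 7, 1, 7, 7, 1, 8, 8, 1, 8, 8, 1, 7]] (by decide +kernel)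

theorem genE8 : Good chevE8 (M := CoxeterMatrix.E₈) [0] :=
  good_of_check certE8 coxE8 [0] [[0], [9, 0, 9, 9, 0, 9, 9, 9, 0, 8, 8, 8, 0, 8, 8, 0, 8], [8, 0, 9], [8, 8, 8, 8, 0, 8, 8, 8, 0, 9, 9, 9, 0, 9, 9, 9, 9], [8, 8, 8, 8, 8, 0, 8, 8, 8, 0, 9, 9, 9, 0, 9, 9, 9, 9, 9], [8, 8, 8, 8, 8, 8, 0, 8, 8, 8, 0, 9, 9, 9, 0, 9, 9, 9, 9, 9, 9], [9, 9, 9, 9, 9, 0, 9, 9, 9, 0, 8, 8, 8, 0, 8, 8, 8, 8, 8], [9, 9, 9, 9, 0, 9, 9, 9, 0, 8, 8, 8, 0, 8, 8, 8, 8]] (by decide +kernel)

end Cfsg.Agent.KnownA.CoxeterGenerators
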