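import Cfsg.Agent.Chev.Bruhat
import Cfsg.Agent.Chev.Certs
import Cfsg.Prelude.Def_ChevAutomorphisms

/-!
Generation of a Chevalley group by the monomial subgroup and one or two root subgroups.
-/

set_option autoImplicit false

universe u

namespace Cfsg.Agent.KnownA.RootGeneration

open Cfsg.Lie Cfsg.Agent.Chev

/-- `p_j = w_a w_j (p_a)`. -/
def swapEdge (D : ChevalleyDatum) (a j : ℕ) : Bool :=
  D.reflectRoot a (D.reflectRoot j (D.simple a)) == D.simple j

/-- `p_j` is the sum of `w_j (p_a)` and `w_a (p_a)`, with commutator coefficient `± c`. -/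
def sumEdge (D : ChevalleyDatum) (c : ℤ) (a j : ℕ) : Bool :=
  D.reflectRoot a (D.simple a) != D.reflectRoot j (D.simple a) &&
    D.reflectRoot a (D.simple a) != D.neg (D.reflectRoot j (D.simple a)) &&
    (D.commTerms (D.reflectRoot j (D.simple a)) (D.reflectRoot a (D.simple a)) == [(D.simple j, c, 1, 1)] ||
      D.commTerms (D.reflectRoot j (D.simple a)) (D.reflectRoot a (D.simple a)) == [(D.simple j, -c, 1, 1)])

/-- Nodes reached from `L` along the edges in `k` steps. -/
def reach (D : ChevalleyDatum) (e : ℕ → ℕ → Bool) : ℕ → List ℕ → List ℕ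
  | 0, L => L
  | k + 1, L => reach D e k ((List.range D.rank).filter fun j => L.contains j || L.any (e · j))

theorem reach_prop {D : ChevalleyDatum} {e : ℕ → ℕ → Bool} {p : ℕ → Prop}
    (hcl : ∀ a j, a < D.rank → j < D.rank → p a → e a j = true → p j) :
    ∀ (k : ℕ) (L : List ℕ), (∀ x ∈ L, x < D.rank ∧ p x) → ∀ j ∈ reach D e k L, p j := by
  intro k
  induction k with
  | zero => exact fun L hL j hj => (hL j hj).2
  | succ k ih =>
    intro L hL
    refine ih _ fun x hx => ?_
    simp only [List.mem_filter, List.mem_range, Bool.or_eq_true, List.contains_iff_mem,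
      List.any_eq_true] at hx
    obtain ⟨hx, h | ⟨a, ha, h⟩⟩ := hx
    · exact ⟨hx, (hL x h).2⟩
    · exact ⟨hx, hcl a x (hL a ha).1 hx (hL a ha).2 h⟩

variable {D : ChevalleyDatum} {F : Type u} [Field F] (C : Cert.{u} D)
include C

theorem xu_mem_refl {K : Subgroup (GL D.Idx F)} (hN : D.monomialSubgroup F ≤ K) {a r : ℕ}
    (ha : a < D.rank) (hr : r < D.nroots) (h : ∀ t : F, C.xu r t ∈ K) (t : F) :
    C.xu (D.reflectRoot a r) t ∈ K := by
  obtain ⟨c, hc, e⟩ := C.conj_xu_simple (F := F) ha hr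
  have hn := hN (C.nu_mem_monomial (F := F) ha)
  have h1 := mul_mem (mul_mem hn (h (c⁻¹ * t))) (inv_mem hn)
  have e' := e (c⁻¹ * t)
  rw [e'] at h1
  first | exact h1 | (rwa [mul_inv_cancel_left₀ hc] at h1) | skip

theorem swap_step {K : Subgroup (GL D.Idx F)} (hN : D.monomialSubgroup F ≤ K) {a j : ℕ}
    (ha : a < D.rank) (hj : j < D.rank) (h : ∀ t : F, C.xu (D.simple a) t ∈ K)
    (he : swapEdge D a j = true) (t : F) : C.xu (D.simple j) t ∈ K := by
  rw [swapEdge, beq_iff_eq] at he
  rw [← he]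
  exact xu_mem_refl C hN ha (C.refl_lt j hj _ (C.simple_lt a ha))
    (xu_mem_refl C hN hj (C.simple_lt a ha) h) t

theorem sum_step {K : Subgroup (GL D.Idx F)} (hN : D.monomialSubgroup F ≤ K) {c : ℤ} (hc : (c : F) ≠ 0)
    {a j : ℕ} (ha : a < D.rank) (hj : j < D.rank) (h : ∀ t : F, C.xu (D.simple a) t ∈ K)
    (he : sumEdge D c a j = true) (t : F) : C.xu (D.simple j) t ∈ K := by
  simp only [sumEdge, Bool.and_eq_true, bne_iff_ne, ne_eq, Bool.or_eq_true, beq_iff_eq] at he
  obtain ⟨⟨h1, h2⟩, h3⟩ := he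
  have hp := C.simple_lt a ha
  have hrj := C.refl_lt j hj _ hp
  have hra := C.refl_lt a ha _ hp
  have key : ∀ {d : ℤ}, (d : F) ≠ 0 →
      D.commTerms (D.reflectRoot j (D.simple a)) (D.reflectRoot a (D.simple a)) = [(D.simple j, d, 1, 1)] →
      C.xu (D.simple j) t ∈ K := by
    intro d hd hterm
    have e := C.xu_comm hrj hra h1 h2 (-1) (t / (d : F))
    have hw : C.wu (D.commWord F (D.reflectRoot j (D.simple a)) (D.reflectRoot a (D.simple a)) (-1)
        (t / (d : F))) = C.xu (D.simple j) t := by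
      simp only [ChevalleyDatum.commWord, hterm, List.map_cons, List.map_nil, Cert.wu, List.prod_cons,
        List.prod_nil, mul_one, pow_one, _root_.neg_neg]
      congr 1
      field_simp
    rw [hw] at e
    have m1 : ∀ u, C.xu (D.reflectRoot j (D.simple a)) u ∈ K := xu_mem_refl C hN hj hp h
    have m2 : ∀ u, C.xu (D.reflectRoot a (D.simple a)) u ∈ K := xu_mem_refl C hN ha hp h
    have e2 : C.xu (D.simple j) t = (C.xu (D.reflectRoot j (D.simple a)) (-1) *
        C.xu (D.reflectRoot a (D.simple a)) (t / (d : F)))⁻¹ *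
        (C.xu (D.reflectRoot a (D.simple a)) (t / (d : F)) *
          C.xu (D.reflectRoot j (D.simple a)) (-1)) := by
      rw [e]; group
    rw [e2]
    exact mul_mem (inv_mem (mul_mem (m1 _) (m2 _))) (mul_mem (m2 _) (m1 _))
  rcases h3 with h3 | h3
  · exact key hc h3
  · exact key (by simpa using hc) h3

theorem group_le_of_reach {K : Subgroup (GL D.Idx F)} (hN : D.monomialSubgroup F ≤ K)
    {e : ℕ → ℕ → Bool}
    (he : ∀ a j, a < D.rank → j < D.rank → (∀ t : F, C.xu (D.simple a) t ∈ K) → e a j = true →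
      ∀ t : F, C.xu (D.simple j) t ∈ K)
    (L : List ℕ) (hL : ∀ x ∈ L, x < D.rank ∧ D.rootSubgroup F (D.simple x) ≤ K)
    (hall : ∀ j < D.rank, j ∈ reach D e D.rank L) : D.group F ≤ K := by
  have hsimple : ∀ i < D.rank, ∀ t : F, C.xu (D.simple i) t ∈ K := fun i hi =>
    reach_prop (p := fun x => ∀ t : F, C.xu (D.simple x) t ∈ K) he D.rank L
      (fun x hx => ⟨(hL x hx).1, fun t => (hL x hx).2 (C.mem_rootSubgroup.mpr ⟨t, rfl⟩)⟩) i (hall i hi)
  have hroots : ∀ r < D.nroots, ∀ t : F, C.xu r t ∈ K := fun r hr =>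
    C.induction_simple (fun r => ∀ t : F, C.xu r t ∈ K) hsimple
      (fun i hi r hr h => xu_mem_refl C hN hi hr h) r hr
  rw [C.group_eq_closure]
  refine (Subgroup.closure_le _).mpr ?_
  rintro g ⟨r, hr, t, rfl⟩
  exact hroots r hr t

omit C

theorem reach_one {D : ChevalleyDatum} (hD : D ∈ [chevD4, chevE6, chevE7, chevE8]) :
    ∀ i < D.rank, ∀ j < D.rank, j ∈ reach D (swapEdge D) D.rank [i] := by
  simp only [List.mem_cons, List.not_mem_nil, or_false] at hD
  rcases hD with rfl | rfl | rfl | rfl <;> decide +kernel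

theorem reach_short :
    (∀ i < chevB2.rank, chevB2.isLong (chevB2.simple i) = false → ∀ j < chevB2.rank,
      j ∈ reach chevB2 (fun a j => swapEdge chevB2 a j || sumEdge chevB2 2 a j) chevB2.rank [i]) ∧
    (∀ i < chevF4.rank, chevF4.isLong (chevF4.simple i) = false → ∀ j < chevF4.rank,
      j ∈ reach chevF4 (fun a j => swapEdge chevF4 a j || sumEdge chevF4 2 a j) chevF4.rank [i]) ∧
    (∀ i < chevG2.rank, chevG2.isLong (chevG2.simple i) = false → ∀ j < chevG2.rank,
      j ∈ reach chevG2 (fun a j => swapEdge chevG2 a j || sumEdge chevG2 3 a j) chevG2.rank [i]) := by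
  refine ⟨?_, ?_, ?_⟩ <;> decide +kernel

set_option synthInstance.maxSize 2048 in
set_option synthInstance.maxHeartbeats 400000 in
theorem reach_two :
    ∀ D ∈ [chevB2, chevF4, chevG2], ∀ i < D.rank, ∀ j < D.rank, D.isLong (D.simple i) = false →
      D.isLong (D.simple j) = true → ∀ k < D.rank, k ∈ reach D (swapEdge D) D.rank [i, j] := by
  intro D hD
  simp only [List.mem_cons, List.not_mem_nil, or_false] at hD
  rcases hD with rfl | rfl | rfl <;> decide +kernel

end Cfsg.Agent.KnownA.RootGeneration
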