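import Mathlib

set_option autoImplicit false

namespace Cfsg.Agent.KnownA

open Matrix

variable {F : Type*} [Field F] {n : ℕ}

/-- The next term of the fixed-point flag. -/
def nextFix (U : Subgroup (Matrix.SpecialLinearGroup (Fin n) F)) (W : Submodule F (Fin n → F)) :
    Submodule F (Fin n → F) :=
  ⨅ u : U, W.comap (Matrix.mulVecLin (((u : Matrix.SpecialLinearGroup (Fin n) F) : Matrix (Fin n) (Fin n) F)) - LinearMap.id)

theorem mem_nextFix {U : Subgroup (Matrix.SpecialLinearGroup (Fin n) F)} {W : Submodule F (Fin n → F)}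
    {v : Fin n → F} :
    v ∈ nextFix U W ↔ ∀ u ∈ U, (u : Matrix (Fin n) (Fin n) F) *ᵥ v - v ∈ W := by
  simp [nextFix]

/-- The fixed-point flag. -/
def fixFlag (U : Subgroup (Matrix.SpecialLinearGroup (Fin n) F)) : ℕ → Submodule F (Fin n → F)
  | 0 => ⊥
  | k + 1 => nextFix U (fixFlag U k)

theorem exists_flag [Fintype F] (p : ℕ) [Fact p.Prime] [CharP F p] (n : ℕ)
    (U : Subgroup (Matrix.SpecialLinearGroup (Fin n) F)) (hU : IsPGroup p ↥U) (hne : U ≠ ⊥) :
    ∃ (k : ℕ) (V : Fin (k + 2) → Submodule F (Fin n → F)), 1 ≤ k ∧ StrictMono V ∧ V 0 = ⊥ ∧ V (Fin.last (k + 1)) = ⊤ ∧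
      (∀ g ∈ Subgroup.normalizer (U : Set (Matrix.SpecialLinearGroup (Fin n) F)), ∀ i, (V i).map (Matrix.mulVecLin (g : Matrix (Fin n) (Fin n) F)) = V i) ∧
      (∀ u ∈ U, ∀ i : Fin (k + 1), ∀ v ∈ V i.succ, (u : Matrix (Fin n) (Fin n) F).mulVec v - v ∈ V (Fin.castSucc i)) := by
  classical
  set W := fixFlag U with hW
  -- invariance
  have hN : ∀ k, ∀ g ∈ Subgroup.normalizer (U : Set (Matrix.SpecialLinearGroup (Fin n) F)),
      ∀ v ∈ W k, (g : Matrix (Fin n) (Fin n) F) *ᵥ v ∈ W k := by
    intro k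
    induction k with
    | zero => intro g _ v hv; simp [hW, fixFlag] at hv ⊢; simp [hv]
    | succ k ih =>
      intro g hg v hv
      rw [hW, fixFlag, mem_nextFix] at hv ⊢
      intro u hu
      have h1 := ih g hg _ (hv (g⁻¹ * u * g) ((Subgroup.mem_normalizer_iff''.mp hg u).mp hu))
      rw [Matrix.mulVec_sub, Matrix.mulVec_mulVec, ← Matrix.SpecialLinearGroup.coe_mul,
        show g * (g⁻¹ * u * g) = u * g by group, Matrix.SpecialLinearGroup.coe_mul,
        ← Matrix.mulVec_mulVec] at h1
      exact h1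
  have hmono : ∀ k, W k ≤ W (k + 1) := by
    intro k v hv
    rw [hW, fixFlag, mem_nextFix]
    intro u hu
    exact sub_mem (hN k u (Subgroup.le_normalizer hu) v hv) hv
  -- strict increase
  have hstrict : ∀ k, W k ≠ ⊤ → W k < W (k + 1) := by
    intro k hk
    refine lt_of_le_of_ne (hmono k) fun heq => ?_
    let act : MulAction U ((Fin n → F) ⧸ W k) :=
      { smul := fun u x => Submodule.mapQ (W k) (W k)
          (Matrix.mulVecLin ((u : Matrix.SpecialLinearGroup (Fin n) F) : Matrix (Fin n) (Fin n) F))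
          (fun v hv => hN k u (Subgroup.le_normalizer u.2) v hv) x
        one_smul := fun x => by
          obtain ⟨v, rfl⟩ := Submodule.Quotient.mk_surjective _ x
          show Submodule.Quotient.mk _ = _
          simp
        mul_smul := fun a b x => by
          obtain ⟨v, rfl⟩ := Submodule.Quotient.mk_surjective _ x
          show Submodule.Quotient.mk _ = Submodule.Quotient.mk _
          simp [Matrix.mulVec_mulVec] }
    letI := act
    have hdvd : p ∣ Nat.card ((Fin n → F) ⧸ W k) := by
      obtain ⟨e, -, he⟩ := FiniteField.card F p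
      haveI : Nontrivial ((Fin n → F) ⧸ W k) := Submodule.Quotient.nontrivial_iff.mpr hk
      rw [Module.natCard_eq_pow_finrank (K := F), Nat.card_eq_fintype_card, he, ← pow_mul]
      exact dvd_pow_self p (Nat.mul_ne_zero e.ne_zero Module.finrank_pos.ne')
    obtain ⟨b, hb, hb0⟩ := hU.exists_fixed_point_of_prime_dvd_card_of_fixed_point _ hdvd
      (a := (0 : (Fin n → F) ⧸ W k)) (fun u => map_zero (Submodule.mapQ (W k) (W k) _ _))
    obtain ⟨v, rfl⟩ := Submodule.Quotient.mk_surjective _ b
    apply hb0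
    symm
    rw [Submodule.Quotient.mk_eq_zero]
    rw [heq, hW, fixFlag, mem_nextFix]
    intro u hu
    have : (⟨u, hu⟩ : U) • (Submodule.Quotient.mk v : (Fin n → F) ⧸ W k) = Submodule.Quotient.mk v := hb ⟨u, hu⟩
    exact (Submodule.Quotient.eq _).mp this
  have hex : ∃ k, W k = ⊤ := by
    by_contra hc
    push Not at hc
    have hle : ∀ k, k ≤ Module.finrank F (W k) := by
      intro k
      induction k with
      | zero => omega
      | succ k ih => have := Submodule.finrank_lt_finrank_of_lt (hstrict k (hc k)); omega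
    have := (hle (n + 1)).trans (Submodule.finrank_le _)
    simp at this
  set K := Nat.find hex
  have hK : W K = ⊤ := Nat.find_spec hex
  have hKmin : ∀ i < K, W i ≠ ⊤ := fun i hi => Nat.find_min hex hi
  have hK2 : 2 ≤ K := by
    by_contra hc
    have h1 : W 1 = ⊤ := by
      rcases Nat.lt_or_ge K 1 with h | h
      · have hK0 : K = 0 := by omega
        rw [hK0] at hK
        exact top_le_iff.mp (hK ▸ hmono 0)
      · rwa [show K = 1 by omega] at hK
    apply hne
    rw [Subgroup.eq_bot_iff_forall]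
    intro u hu
    refine Subtype.ext ?_
    apply Matrix.ext_iff_mulVec.mpr
    intro v
    have hv : v ∈ W 1 := h1 ▸ Submodule.mem_top
    rw [hW, fixFlag, mem_nextFix] at hv
    have := hv u hu
    rw [fixFlag, Submodule.mem_bot, sub_eq_zero] at this
    simpa using this
  obtain ⟨k, hk⟩ : ∃ k, K = k + 1 := ⟨K - 1, by omega⟩
  refine ⟨k, fun i => W i, by omega, ?_, rfl, ?_, ?_, ?_⟩
  · refine Fin.strictMono_iff_lt_succ.mpr fun i => ?_
    simpa using hstrict i (hKmin i (by omega))
  · simpa [← hk] using hK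
  · intro g hg i
    refine le_antisymm (Submodule.map_le_iff_le_comap.mpr fun v hv => hN i g hg v hv) fun v hv => ?_
    exact ⟨((g⁻¹ : Matrix.SpecialLinearGroup (Fin n) F) : Matrix (Fin n) (Fin n) F) *ᵥ v,
      hN i g⁻¹ (inv_mem hg) v hv, by
        rw [Matrix.mulVecLin_apply, Matrix.mulVec_mulVec, ← Matrix.SpecialLinearGroup.coe_mul, mul_inv_cancel]
        simp⟩
  · intro u hu i v hv
    have hv' : v ∈ W ((i : ℕ) + 1) := by simpa using hv
    rw [hW, fixFlag, mem_nextFix] at hv'
    simpa using hv' u hu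

end Cfsg.Agent.KnownA
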