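import Cfsg.Agent.Chev.Weyl
import Cfsg.Agent.Chev.Certs
import Cfsg.Agent.Chev.CoxCheck

/-!
Centres of the Weyl groups of the tabulated types: at most the element acting as `-1` on the roots.
-/

set_option autoImplicit false

universe u

namespace Cfsg.Agent.KnownA.WeylCenter

open Cfsg.Lie Cfsg.Agent.Chev

/-- The only roots reversed by a simple reflection are `±` that simple root, and some root has
full support. -/
def rootCheck (D : ChevalleyDatum) : Bool :=
  ((List.range D.rank).all fun i => (List.range D.nroots).all fun r =>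
    D.reflectRoot i r != D.neg r || r == D.simple i || r == D.neg (D.simple i)) &&
  (List.range D.nroots).any fun r => (List.range D.rank).all fun k => corootC D r k != 0

/-- The `m`-th power of the Coxeter word acts as `-1`. -/
def minusCheck (D : ChevalleyDatum) (m : ℕ) : Bool :=
  (List.range D.rank).all fun k =>
    act D (((List.replicate m (List.finRange D.rank)).flatten).map Fin.val) (D.simple k) ==
      D.neg (D.simple k)

/-- A word sending every simple root to a negative root, that does not act as `-1`. -/
def noMinusCheck (D : ChevalleyDatum) (W : List (Fin D.rank)) : Bool :=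
  ((List.range D.rank).all fun k =>
    ((D.coroot.getD (act D (W.map Fin.val) (D.simple k)) #[]).toList).all fun c => decide (c ≤ 0)) &&
  (List.range D.rank).any fun k => act D (W.map Fin.val) (D.simple k) != D.neg (D.simple k)

variable {D : ChevalleyDatum} (C : Cert.{0} D) {M : CoxeterMatrix (Fin D.rank)} (hM : CoxOK D M)
include C hM

omit C hM in
theorem val_lt {L : List (Fin D.rank)} : ∀ a ∈ L.map Fin.val, a < D.rank := by
  intro a ha
  obtain ⟨b, -, rfl⟩ := List.mem_map.1 ha
  exact b.isLt

theorem exists_word (w : M.Group) :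
    ∃ L : List (Fin D.rank), ∀ r < D.nroots, C.rootImage hM w r = act D (L.map Fin.val) r := by
  obtain ⟨L, -, rfl⟩ := M.toCoxeterSystem.exists_reduced_word w
  exact ⟨L, fun r hr => C.rootImage_wordProd hM L hr⟩

theorem eq_of_images {v w : M.Group}
    (h : ∀ k < D.rank, C.rootImage hM v (D.simple k) = C.rootImage hM w (D.simple k)) : v = w := by
  obtain ⟨L, hL⟩ := exists_word C hM v
  obtain ⟨L', hL'⟩ := exists_word C hM w
  apply C.rootRep_injective hM
  ext r
  have h1 := hL r r.isLt
  have h2 := hL' r r.isLt
  simp only [Cert.rootImage, dif_pos r.isLt, Fin.eta] at h1 h2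
  rw [h1, h2]
  refine C.act_ext (val_lt) (val_lt) (fun k hk => ?_) r.isLt
  rw [← hL _ (C.simple_lt k hk), ← hL' _ (C.simple_lt k hk), h k hk]

theorem image_neg (w : M.Group) {r : ℕ} (hr : r < D.nroots) :
    C.rootImage hM w (D.neg r) = D.neg (C.rootImage hM w r) := by
  obtain ⟨L, hL⟩ := exists_word C hM w
  rw [hL _ (C.neg_lt r hr), hL _ hr, C.act_neg (val_lt) hr]

theorem image_of_minus {w : M.Group}
    (h : ∀ k < D.rank, C.rootImage hM w (D.simple k) = D.neg (D.simple k)) {r : ℕ}
    (hr : r < D.nroots) : C.rootImage hM w r = D.neg r := by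
  obtain ⟨L, hL⟩ := exists_word C hM w
  refine C.coef_inj _ (C.rootImage_lt hM w hr) _ (C.neg_lt r hr) fun k hk => ?_
  rw [hL _ hr, C.act_coef (val_lt) hr k hk, C.coef_neg r hr k hk,
    Finset.sum_eq_single_of_mem k (Finset.mem_range.2 hk) fun j hj hjk => ?_]
  · rw [← hL _ (C.simple_lt k hk), h k hk, C.coef_neg _ (C.simple_lt k hk) k hk,
      C.coef_simple k hk k hk, if_pos rfl, mul_neg, mul_one]
  · have hj' := Finset.mem_range.1 hj
    rw [← hL _ (C.simple_lt j hj'), h j hj', C.coef_neg _ (C.simple_lt j hj') k hk,
      C.coef_simple j hj' k hk, if_neg (Ne.symm hjk), neg_zero, mul_zero]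

/-- A central element is trivial or reverses every simple root. -/
theorem center_cases (hc : rootCheck D = true) {z : M.Group} (hz : z ∈ Subgroup.center M.Group) :
    z = 1 ∨ ∀ k < D.rank, C.rootImage hM z (D.simple k) = D.neg (D.simple k) := by
  simp only [rootCheck, Bool.and_eq_true, Bool.or_eq_true, List.all_eq_true, List.any_eq_true,
    List.mem_range, bne_iff_ne, ne_eq, beq_iff_eq] at hc
  obtain ⟨hfix, r, hr, hsupp⟩ := hc
  have hpm : ∀ k < D.rank, C.rootImage hM z (D.simple k) = D.simple k ∨
      C.rootImage hM z (D.simple k) = D.neg (D.simple k) := by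
    intro k hk
    have hp := C.simple_lt k hk
    have h := congrArg (fun g => C.rootImage hM g (D.simple k))
      (Subgroup.mem_center_iff.1 hz (M.simple ⟨k, hk⟩))
    rw [C.rootImage_mul hM _ _ hp, C.rootImage_mul hM _ _ hp,
      C.rootImage_simple hM _ (C.rootImage_lt hM z hp), C.rootImage_simple hM _ hp,
      C.refl_simple hk, image_neg C hM z hp] at h
    rcases hfix k hk _ (C.rootImage_lt hM z hp) with (h' | h') | h'
    · exact absurd h h'
    · exact Or.inl h'
    · exact Or.inr h'
  by_cases hall : ∀ k < D.rank, C.rootImage hM z (D.simple k) = D.neg (D.simple k)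
  · exact Or.inr hall
  refine Or.inl (eq_of_images C hM fun k hk => ?_)
  rw [C.rootImage_one hM]
  push Not at hall
  obtain ⟨i, hi, hineg⟩ := hall
  refine (hpm k hk).resolve_right fun hkneg => ?_
  have hipos := (hpm i hi).resolve_right hineg
  obtain ⟨L, hL⟩ := exists_word C hM z
  have hq := C.rootImage_lt hM z hr
  have hcoef : ∀ x < D.rank, C.coef (C.rootImage hM z r) x =
      C.coef r x * C.coef (C.rootImage hM z (D.simple x)) x := by
    intro x hx
    rw [hL _ hr, C.act_coef (val_lt) hr x hx, hL _ (C.simple_lt x hx)]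
    refine Finset.sum_eq_single_of_mem x (Finset.mem_range.2 hx) fun j hj hjx => ?_
    have hj' := Finset.mem_range.1 hj
    rw [← hL _ (C.simple_lt j hj')]
    rcases hpm j hj' with h | h <;> rw [h]
    · rw [C.coef_simple j hj' x hx, if_neg (Ne.symm hjx), mul_zero]
    · rw [C.coef_neg _ (C.simple_lt j hj') x hx, C.coef_simple j hj' x hx, if_neg (Ne.symm hjx),
        neg_zero, mul_zero]
  have ei := hcoef i hi
  have ek := hcoef k hk
  rw [hipos, C.coef_simple i hi i hi, if_pos rfl, mul_one] at ei
  rw [hkneg, C.coef_neg _ (C.simple_lt k hk) k hk, C.coef_simple k hk k hk, if_pos rfl, mul_neg,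
    mul_one] at ek
  have ni : C.coef r i ≠ 0 := fun e => hsupp i hi ((C.coef_zero_iff r hr i hi).1 e)
  have nk : C.coef r k ≠ 0 := fun e => hsupp k hk ((C.coef_zero_iff r hr k hk).1 e)
  rcases C.pos_or_neg r hr with h | h <;> rcases C.pos_or_neg _ hq with h' | h' <;>
    · have := h i hi; have := h k hk; have := h' i hi; have := h' k hk
      omega

omit C hM in
theorem wordProd_replicate (m : ℕ) :
    M.toCoxeterSystem.wordProd ((List.replicate m (List.finRange D.rank)).flatten) =
      ((List.finRange D.rank).map M.simple).prod ^ m := by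
  induction m with
  | zero => simp
  | succ m ih =>
    rw [List.replicate_succ, List.flatten_cons, CoxeterSystem.wordProd_append, ih, pow_succ']
    simp [CoxeterSystem.wordProd, CoxeterMatrix.toCoxeterSystem_simple]

theorem center_two (hc : rootCheck D = true) (m : ℕ) (hm : minusCheck D m = true)
    (h0 : 0 < D.rank) :
    Nat.card (Subgroup.center M.Group) = 2 ∧
      Subgroup.center M.Group ≤ Subgroup.zpowers ((List.finRange D.rank).map M.simple).prod := by
  simp only [minusCheck, List.all_eq_true, List.mem_range, beq_iff_eq] at hm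
  set c := ((List.finRange D.rank).map M.simple).prod
  have hz : ∀ k < D.rank, C.rootImage hM (c ^ m) (D.simple k) = D.neg (D.simple k) := by
    intro k hk
    rw [← wordProd_replicate m, C.rootImage_wordProd hM _ (C.simple_lt k hk)]
    exact hm k hk
  have hcen : c ^ m ∈ Subgroup.center M.Group := by
    rw [Subgroup.mem_center_iff]
    intro g
    induction g using M.toCoxeterSystem.simple_induction with
    | one => simp
    | simple i =>
      refine eq_of_images C hM fun k hk => ?_
      have hp := C.simple_lt k hk
      rw [CoxeterMatrix.toCoxeterSystem_simple, C.rootImage_mul hM _ _ hp,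
        C.rootImage_mul hM _ _ hp, hz k hk, C.rootImage_simple hM _ (C.neg_lt _ hp),
        C.rootImage_simple hM _ hp, C.refl_neg i.isLt hp,
        image_of_minus C hM hz (C.refl_lt i i.isLt _ hp)]
    | mul a b ha hb => rw [mul_assoc, hb, ← mul_assoc, ha, mul_assoc]
  have hne : (1 : M.Group) ≠ c ^ m := by
    intro e
    have h := hz 0 h0
    rw [← e, C.rootImage_one hM] at h
    exact C.neg_ne _ (C.simple_lt 0 h0) h.symm
  have hset : (Subgroup.center M.Group : Set M.Group) = {1, c ^ m} := by
    ext z
    refine ⟨fun h => ?_, ?_⟩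
    · rcases center_cases C hM hc h with e | e
      · exact Or.inl e
      · exact Or.inr (eq_of_images C hM fun k hk => by rw [e k hk, hz k hk])
    · rintro (rfl | rfl)
      exacts [one_mem _, hcen]
  refine ⟨?_, fun z hz' => ?_⟩
  · rw [← SetLike.coe_sort_coe, Nat.card_coe_set_eq, hset, Set.ncard_pair hne]
  · have : z ∈ (Subgroup.center M.Group : Set M.Group) := hz'
    rw [hset] at this
    rcases this with rfl | rfl
    exacts [one_mem _, Subgroup.npow_mem_zpowers _ _]

theorem center_one (hc : rootCheck D = true) (W : List (Fin D.rank))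
    (hW : noMinusCheck D W = true) :
    Nat.card (Subgroup.center M.Group) = 1 ∧
      Subgroup.center M.Group ≤ Subgroup.zpowers ((List.finRange D.rank).map M.simple).prod := by
  simp only [noMinusCheck, Bool.and_eq_true, List.all_eq_true, List.any_eq_true, List.mem_range,
    bne_iff_ne, ne_eq, decide_eq_true_eq] at hW
  obtain ⟨hneg, j, hj, hjne⟩ := hW
  have hbot : Subgroup.center M.Group = ⊥ := by
    rw [Subgroup.eq_bot_iff_forall]
    intro z hz
    rcases center_cases C hM hc hz with e | e
    · exact e
    exfalso
    set w := M.toCoxeterSystem.wordProd W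
    have himg : ∀ k < D.rank, C.rootImage hM (w * z) (D.simple k) =
        D.neg (act D (W.map Fin.val) (D.simple k)) := by
      intro k hk
      have hp := C.simple_lt k hk
      rw [C.rootImage_mul hM _ _ hp, e k hk, image_neg C hM w hp, C.rootImage_wordProd hM _ hp]
    have hu : w * z = 1 := by
      by_contra hne
      obtain ⟨i, hi⟩ := M.toCoxeterSystem.exists_rightDescent_of_ne_one hne
      refine (C.pos_iff_not_descent hM (w * z) i).1 ?_ hi
      rw [himg i i.isLt]
      have hlt := C.act_lt (val_lt (L := W)) (C.simple_lt i i.isLt)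
      refine C.pos_of_coef_nonneg (C.neg_lt _ hlt) fun x hx => ?_
      rw [C.coef_neg _ hlt x hx, neg_nonneg]
      exact (C.negRoot_iff _ hlt).1 ⟨hlt, hneg i i.isLt⟩ x hx
    have h := himg j hj
    rw [hu, C.rootImage_one hM] at h
    have hlt := C.act_lt (val_lt (L := W)) (C.simple_lt j hj)
    refine hjne ?_
    rw [congrArg D.neg h, C.neg_neg _ hlt]
  rw [hbot]
  exact ⟨Subgroup.card_bot, bot_le⟩

end Cfsg.Agent.KnownA.WeylCenter
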