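import Cfsg.Agent.KnownA.WeylCenter

/-! The centres of the seven tabulated Weyl groups. -/

set_option autoImplicit false

namespace Cfsg.Agent.KnownA.WeylCenter

open Cfsg.Lie Cfsg.Agent.Chev

theorem centerB2 : Nat.card (Subgroup.center (CoxeterMatrix.B 2).Group) = 2 ∧
    Subgroup.center (CoxeterMatrix.B 2).Group ≤
      Subgroup.zpowers ((List.finRange 2).map (CoxeterMatrix.B 2).simple).prod :=
  center_two (D := chevB2) (M := CoxeterMatrix.B 2) certB2 coxB2 (by decide +kernel) 2
    (by decide +kernel) (by decide +kernel)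

theorem centerG2 : Nat.card (Subgroup.center CoxeterMatrix.G₂.Group) = 2 ∧
    Subgroup.center CoxeterMatrix.G₂.Group ≤
      Subgroup.zpowers ((List.finRange 2).map CoxeterMatrix.G₂.simple).prod :=
  center_two (D := chevG2) (M := CoxeterMatrix.G₂) certG2 coxG2 (by decide +kernel) 3
    (by decide +kernel) (by decide +kernel)

theorem centerD4 : Nat.card (Subgroup.center Cfsg.Lie.coxeterD4.Group) = 2 ∧
    Subgroup.center Cfsg.Lie.coxeterD4.Group ≤
      Subgroup.zpowers ((List.finRange 4).map Cfsg.Lie.coxeterD4.simple).prod :=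
  center_two (D := chevD4) (M := Cfsg.Lie.coxeterD4) certD4 coxD4 (by decide +kernel) 3
    (by decide +kernel) (by decide +kernel)

theorem centerF4 : Nat.card (Subgroup.center CoxeterMatrix.F₄.Group) = 2 ∧
    Subgroup.center CoxeterMatrix.F₄.Group ≤
      Subgroup.zpowers ((List.finRange 4).map CoxeterMatrix.F₄.simple).prod :=
  center_two (D := chevF4) (M := CoxeterMatrix.F₄) certF4 coxF4 (by decide +kernel) 6
    (by decide +kernel) (by decide +kernel)

set_option maxHeartbeats 2000000 in
theorem centerE6 : Nat.card (Subgroup.center CoxeterMatrix.E₆.Group) = 1 ∧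
    Subgroup.center CoxeterMatrix.E₆.Group ≤
      Subgroup.zpowers ((List.finRange 6).map CoxeterMatrix.E₆.simple).prod :=
  center_one (D := chevE6) (M := CoxeterMatrix.E₆) certE6 coxE6 (by decide +kernel)
    ([0, 1, 2, 0, 3, 1, 2, 0, 3, 2, 4, 3, 1, 2, 0, 3, 2, 4, 3, 1, 5, 4, 3, 1, 2, 0, 3, 2, 4, 3, 1, 5, 4, 3,
      2, 0] : List (Fin 6))
    (by decide +kernel)

set_option maxHeartbeats 2000000 in
theorem centerE7 : Nat.card (Subgroup.center CoxeterMatrix.E₇.Group) = 2 ∧
    Subgroup.center CoxeterMatrix.E₇.Group ≤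
      Subgroup.zpowers ((List.finRange 7).map CoxeterMatrix.E₇.simple).prod :=
  center_two (D := chevE7) (M := CoxeterMatrix.E₇) certE7 coxE7 (by decide +kernel) 9
    (by decide +kernel) (by decide +kernel)

set_option maxHeartbeats 2000000 in
theorem centerE8 : Nat.card (Subgroup.center CoxeterMatrix.E₈.Group) = 2 ∧
    Subgroup.center CoxeterMatrix.E₈.Group ≤
      Subgroup.zpowers ((List.finRange 8).map CoxeterMatrix.E₈.simple).prod :=
  center_two (D := chevE8) (M := CoxeterMatrix.E₈) certE8 coxE8 (by decide +kernel) 15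
    (by decide +kernel) (by decide +kernel)

end Cfsg.Agent.KnownA.WeylCenter
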